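import Cfsg.Agent.CharInd.GenChar
import Cfsg.Agent.Char.Linear
import Cfsg.Agent.Char.Kernel

/-!
# The induction theorem of Artin
-/

noncomputable section

namespace Cfsg.Agent.CharInd

open scoped ComplexConjugate BigOperators
open Finset

universe u

/-- `|T|` on the generators of a group `T`, zero elsewhere. -/
def artinTheta (T : Type u) [Group T] : T → ℂ :=
  Set.indicator {a : T | Subgroup.zpowers a = ⊤} fun _ => (Nat.card T : ℂ)

theorem artinTheta_mem {T : Type u} [Group T] {a : T} (h : Subgroup.zpowers a = ⊤) :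
    artinTheta T a = (Nat.card T : ℂ) :=
  Set.indicator_of_mem (s := {a : T | Subgroup.zpowers a = ⊤}) h _

theorem artinTheta_notMem {T : Type u} [Group T] {a : T} (h : Subgroup.zpowers a ≠ ⊤) :
    artinTheta T a = 0 :=
  Set.indicator_of_notMem (s := {a : T | Subgroup.zpowers a = ⊤}) h _

theorem artin_identity (G : Type u) [Group G] [Fintype G] [Fintype (Subgroup G)]
    [DecidablePred fun A : Subgroup G => IsCyclic A] :
    ∑ A ∈ Finset.univ.filter (fun A : Subgroup G => IsCyclic A), Cfsg.indFun A (artinTheta A) =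
      fun _ => (Nat.card G : ℂ) := by
  classical
  funext g
  have hterm : ∀ (A : Subgroup G) (x : G),
      (Nat.card A : ℂ)⁻¹ * Cfsg.extendByZero A (artinTheta A) (x⁻¹ * g * x) =
        if Subgroup.zpowers (x⁻¹ * g * x) = A then 1 else 0 := by
    intro A x
    by_cases hA : x⁻¹ * g * x ∈ A
    · rw [extendByZero_mem A _ hA]
      have hiff : Subgroup.zpowers (⟨x⁻¹ * g * x, hA⟩ : A) = ⊤ ↔
          Subgroup.zpowers (x⁻¹ * g * x) = A := by
        rw [← (Subgroup.map_injective A.subtype_injective).eq_iff, MonoidHom.map_zpowers,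
          ← MonoidHom.range_eq_map, Subgroup.range_subtype]
        rfl
      by_cases h : Subgroup.zpowers (x⁻¹ * g * x) = A
      · rw [if_pos h, artinTheta_mem (hiff.2 h), inv_mul_cancel₀ natCard_ne_zero]
      · rw [if_neg h, artinTheta_notMem (mt hiff.1 h), mul_zero]
    · rw [extendByZero_notMem A _ hA, if_neg, mul_zero]
      intro h
      exact hA (h ▸ Subgroup.mem_zpowers _)
  rw [Finset.sum_apply]
  simp only [indFun_apply, Finset.mul_sum, hterm]
  rw [Finset.sum_comm, Finset.sum_congr rfl (g := fun _ => (1 : ℂ)), Finset.sum_const,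
    Finset.card_univ, nsmul_one, ← Nat.card_eq_fintype_card]
  intro x _
  rw [Finset.sum_ite_eq, if_pos]
  exact Finset.mem_filter.2 ⟨Finset.mem_univ _, Subgroup.isCyclic_zpowers _⟩

theorem artinTheta_genChar : ∀ (n : ℕ) (T : Type u) [Group T] [Finite T], Nat.card T = n →
    IsCyclic T → Cfsg.IsGeneralizedCharacter T (artinTheta T) := by
  intro n
  induction n using Nat.strong_induction_on with
  | _ n ih =>
    intro T _ _ hn hT
    classical
    letI := Fintype.ofFinite T
    letI := Fintype.ofFinite (Subgroup T)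
    haveI := hT
    have hmem : (⊤ : Subgroup T) ∈ Finset.univ.filter (fun A : Subgroup T => IsCyclic A) :=
      Finset.mem_filter.2 ⟨Finset.mem_univ _, inferInstance⟩
    have htop : Cfsg.indFun (⊤ : Subgroup T) (artinTheta (⊤ : Subgroup T)) = artinTheta T := by
      funext t
      have hc : Nat.card (⊤ : Subgroup T) = Nat.card T := Subgroup.card_top
      have hcomm : ∀ x : T, x⁻¹ * t * x = t := fun x => by
        letI := IsCyclic.commGroup (α := T)
        rw [mul_comm x⁻¹ t, mul_assoc, inv_mul_cancel, mul_one]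
      rw [indFun_apply]
      simp only [hcomm, extendByZero_mem ⊤ _ (Subgroup.mem_top t), Finset.sum_const,
        Finset.card_univ, nsmul_eq_mul, ← Nat.card_eq_fintype_card, hc]
      rw [inv_mul_cancel_left₀ natCard_ne_zero]
      have hiff : Subgroup.zpowers (⟨t, Subgroup.mem_top t⟩ : (⊤ : Subgroup T)) = ⊤ ↔
          Subgroup.zpowers t = ⊤ := by
        rw [← (Subgroup.map_injective (⊤ : Subgroup T).subtype_injective).eq_iff,
          MonoidHom.map_zpowers, ← MonoidHom.range_eq_map, Subgroup.range_subtype]
        rfl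
      by_cases h : Subgroup.zpowers t = ⊤
      · rw [artinTheta_mem h, artinTheta_mem (hiff.2 h), hc]
      · rw [artinTheta_notMem h, artinTheta_notMem (mt hiff.1 h)]
    have e := artin_identity T
    rw [← Finset.add_sum_erase _ _ hmem, htop] at e
    rw [eq_sub_of_add_eq e]
    refine genChar_sub ?_ (genChar_sum _ fun A hA => genChar_indFun A ?_)
    · have : (fun _ : T => (Nat.card T : ℂ)) = Nat.card T • (fun _ : T => (1 : ℂ)) := by
        funext t; simp
      rw [this]
      exact genChar_nsmul (genChar_irr irr_one_const) _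
    · obtain ⟨hA1, hA2⟩ := Finset.mem_erase.1 hA
      refine ih (Nat.card A) ?_ A rfl (Finset.mem_filter.1 hA2).2
      rw [← hn]
      exact lt_of_le_of_ne (Subgroup.card_le_card_group A)
        fun h => hA1 (Subgroup.card_eq_iff_eq_top A |>.1 h)

end Cfsg.Agent.CharInd
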