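import Cfsg.Agent.CharDeep.BrauerInduction
import Cfsg.Agent.CharInd.Monomial
import Cfsg.Agent.Char.Nilpotent

/-!
# The induction theorem of Brauer with linear characters
-/

noncomputable section

namespace Cfsg.Agent.CharInd

open scoped ComplexConjugate BigOperators
open Finset

universe u

/-- Subgroups of elementary groups are elementary. -/
theorem isElementary_subgroup {E : Type u} [Group E] [Finite E] {p : ℕ} (hp : p.Prime)
    (hE : Cfsg.IsElementary p E) (H : Subgroup E) : Cfsg.IsElementary p H := by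
  obtain ⟨x, hx, hcop, k, hk⟩ := hE
  let C := Subgroup.zpowers x
  haveI hCn : C.Normal := ⟨fun n hn g => by
    have : n ∈ Subgroup.center E := (Subgroup.zpowers_le.2 hx) hn
    rw [(Subgroup.mem_center_iff.1 this) g, mul_inv_cancel_right]
    exact hn⟩
  haveI : IsCyclic C := inferInstance
  haveI : IsCyclic (C.subgroupOf H) := by
    refine isCyclic_of_injective
      ({ toFun := fun y => ⟨((y : H) : E), Subgroup.mem_subgroupOf.1 y.2⟩
         map_one' := rfl
         map_mul' := fun _ _ => rfl } : C.subgroupOf H →* C) ?_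
    intro a b e
    exact Subtype.ext (Subtype.ext (congrArg (fun z : C => (z : E)) e))
  obtain ⟨y, hy⟩ := IsCyclic.exists_generator (α := C.subgroupOf H)
  have hyC : ((y : H) : E) ∈ C := Subgroup.mem_subgroupOf.1 y.2
  refine ⟨(y : H), Subgroup.mem_center_iff.2 fun h =>
    Subtype.ext ((Subgroup.mem_center_iff.1 ((Subgroup.zpowers_le.2 hx) hyC)) h), ?_, ?_⟩
  · refine Nat.Coprime.coprime_dvd_left ?_ hcop
    rw [← Subgroup.orderOf_coe]
    obtain ⟨i, hi⟩ := Subgroup.mem_zpowers_iff.1 hyC
    exact orderOf_dvd_of_mem_zpowers (hi ▸ zpow_mem (Subgroup.mem_zpowers x) i)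
  · have hz : Subgroup.zpowers (y : H) = C.subgroupOf H := by
      refine le_antisymm (Subgroup.zpowers_le.2 y.2) fun a ha => ?_
      obtain ⟨i, hi⟩ := Subgroup.mem_zpowers_iff.1 (hy ⟨a, ha⟩)
      exact Subgroup.mem_zpowers_iff.2 ⟨i, by
        have := congrArg Subtype.val hi
        simpa using this⟩
    rw [hz]
    obtain ⟨j, -, hj⟩ := (Nat.dvd_prime_pow hp).1
      (hk ▸ Subgroup.relIndex_dvd_index_of_normal (H := C) H :
        C.relIndex H ∣ p ^ k)
    exact ⟨j, hj⟩

variable {G : Type u} [Group G]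

/-- Integer combinations of linear characters induced from elementary subgroups. -/
def elemLinear [Fintype G] : AddSubgroup (G → ℂ) :=
  AddSubgroup.closure {f | ∃ (p : ℕ) (E : Subgroup G) (lam : E →* ℂˣ), p.Prime ∧
    Cfsg.IsElementary p E ∧ Cfsg.indFun E (fun e => (lam e : ℂ)) = f}

/-- **Brauer**: every character is a combination of induced linear characters of elementary
subgroups. -/
theorem mem_elemLinear [Fintype G] {χ : G → ℂ} (hχ : Cfsg.IsCharacter G χ) :
    χ ∈ elemLinear (G := G) := by
  classical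
  refine CharDeep.mem_of_forall_elementary (Cfsg.Agent.Char.isCharacter_isClassFunction hχ) _ ?_
  intro p E φ hp hE hφ
  letI := Fintype.ofFinite E
  haveI : Group.IsNilpotent E := Cfsg.Agent.Char.isNilpotent_of_isElementary hp hE
  obtain ⟨m, hm, -⟩ := Cfsg.Agent.Char.isCharacter_exists_coeff
    (Cfsg.Agent.Char.isCharacter_mul hφ (Cfsg.Agent.Char.isCharacter_restrict hχ E))
  rw [show (fun e : E => φ e * χ e) = φ * (fun e : E => χ e) from rfl]
  change Cfsg.indFun E (φ * _) ∈ _
  rw [hm, indFun_sum]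
  refine AddSubgroup.sum_mem _ fun ξ _ => ?_
  rw [← Nat.cast_smul_eq_nsmul ℂ, indFun_smul, Nat.cast_smul_eq_nsmul ℂ]
  refine AddSubgroup.nsmul_mem _ ?_ _
  obtain ⟨H, lam, hH⟩ := monomial_of_nilpotent _ E rfl ξ.1 ξ.2
  apply AddSubgroup.subset_closure
  refine ⟨p, H.map E.subtype, lam.comp
    (Subgroup.equivMapOfInjective H _ E.subtype_injective).symm.toMonoidHom, hp,
    CharDeep.isElementary_of_mulEquiv (Subgroup.equivMapOfInjective H _ E.subtype_injective)
      (isElementary_subgroup hp hE H), ?_⟩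
  rw [hH, indFun_indFun_map]
  rfl

end Cfsg.Agent.CharInd
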