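import Cfsg.Agent.CharInd.BrauerMonomial
import Cfsg.Agent.Char.Product

/-!
# Realisation of representations over cyclotomic fields
-/

noncomputable section

namespace Cfsg.Agent.CharInd

open scoped ComplexConjugate BigOperators
open Finset

universe u

section field

variable {G : Type u} [Group G] [Finite G] {k : Type} [Field k] [CharZero k]

/-- A finite dimensional representation decomposes into irreducible coordinate ones. -/
theorem character_mem_closure_irr : ∀ (n : ℕ) (V : Type) [AddCommGroup V] [Module k V]
    [FiniteDimensional k V] (ρ : Representation k G V), Module.finrank k V = n →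
    ρ.character ∈ AddSubmonoid.closure {f : G → k | ∃ (m : ℕ) (τ : Representation k G (Fin m → k)),
      τ.IsIrreducible ∧ τ.character = f} := by
  intro n
  induction n using Nat.strong_induction_on with
  | _ n ih =>
    intro V _ _ _ ρ hV
    rcases subsingleton_or_nontrivial V with hs | hn
    · have : ρ.character = 0 := by
        funext g
        simp [Representation.character, Subsingleton.elim (ρ g) 0]
      rw [this]
      exact AddSubmonoid.zero_mem _
    by_cases hirr : ρ.IsIrreducible
    · refine AddSubmonoid.subset_closure ⟨_, Cfsg.Agent.Char.coordRep ρ, ?_, ?_⟩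
      · haveI := hirr
        exact Cfsg.Agent.Char.isIrreducible_of_equiv (Cfsg.Agent.Char.coordEquiv ρ)
      · exact (Representation.char_iso (Cfsg.Agent.Char.coordEquiv ρ)).symm
    · rw [Cfsg.Agent.Char.isIrreducible_iff_forall] at hirr
      push Not at hirr
      obtain ⟨P, hP, hb, ht⟩ := hirr hn
      haveI : NeZero (Nat.card G : k) := ⟨Nat.cast_ne_zero.mpr Nat.card_pos.ne'⟩
      let p : Subrepresentation ρ := ⟨P, fun g v hv => hP g v hv⟩
      obtain ⟨q, hq⟩ := exists_isCompl p
      have hc : IsCompl p.toSubmodule q.toSubmodule := ⟨disjoint_iff.mpr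
        (congrArg Subrepresentation.toSubmodule (disjoint_iff.mp hq.1)),
        codisjoint_iff.mpr (congrArg Subrepresentation.toSubmodule (codisjoint_iff.mp hq.2))⟩
      have hp1 : Module.finrank k p.toSubmodule < n := hV ▸ Submodule.finrank_lt ht
      have hq1 : Module.finrank k q.toSubmodule < n := by
        rw [← hV]
        refine Submodule.finrank_lt fun hqt => hb ?_
        have := disjoint_iff.mp hc.1
        rwa [hqt, inf_top_eq] at this
      rw [Cfsg.Agent.Char.character_add_of_isCompl ρ p q hc]
      exact AddSubmonoid.add_mem _ (ih _ hp1 _ p.toRepresentation rfl)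
        (ih _ hq1 _ q.toRepresentation rfl)

/-- The inner product over the smaller field is a natural number, zero for different irreducible
characters and positive for equal ones. -/
theorem inner_field [Fintype G] {m m' : ℕ} (σ : Representation k G (Fin m → k))
    (τ : Representation k G (Fin m' → k)) [σ.IsIrreducible] [τ.IsIrreducible] :
    ∃ d : ℕ, (Nat.card G : k)⁻¹ * ∑ g : G, σ.character g * τ.character g⁻¹ = d ∧
      (σ.character = τ.character ↔ d ≠ 0) := by
  haveI : Invertible (Nat.card G : k) := invertibleOfNonzero (Nat.cast_ne_zero.2 Nat.card_pos.ne')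
  refine ⟨Module.finrank k (Representation.IntertwiningMap τ σ),
    Representation.card_inv_mul_sum_char_mul_char_eq_finrank τ σ, ?_⟩
  constructor
  · intro h h0
    have e := Representation.card_inv_mul_sum_char_mul_char_eq_finrank τ σ
    rw [h, Representation.card_inv_mul_sum_char_mul_char_eq_finrank τ τ, h0, Nat.cast_zero,
      Nat.cast_eq_zero, Module.finrank_zero_iff] at e
    haveI := Cfsg.Agent.Char.nontrivial_of_isIrreducible τ
    obtain ⟨v, hv⟩ := exists_ne (0 : Fin m' → k)
    have hid : (⟨LinearMap.id, fun g => rfl⟩ : Representation.IntertwiningMap τ τ) = 0 :=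
      Subsingleton.elim _ _
    exact hv (congrArg (fun f : Representation.IntertwiningMap τ τ => f v) hid)
  · intro h0
    by_contra hne
    haveI : IsEmpty (Representation.Equiv τ σ) :=
      ⟨fun e => hne (Representation.char_iso e).symm⟩
    exact h0 (Module.finrank_zero_of_subsingleton)

/-- The representation affording a character induced from a linear character. -/
theorem exists_rep_induced [Fintype G] (H : Subgroup G) [Fintype H] (lam : H →* k) :
    ∃ (m : ℕ) (τ : Representation k G (Fin m → k)), ∀ g : G,
      τ.character g = (Nat.card H : k)⁻¹ *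
        ∑ x : G, Function.extend (Subtype.val : H → G) lam 0 (x⁻¹ * g * x) := by
  classical
  let R : G → Module.End k (G → k) := fun g => LinearMap.funLeft k k (fun x => x * g)
  let P : Module.End k (G → k) :=
    (Nat.card H : k)⁻¹ • ∑ h : H, lam h • LinearMap.funLeft k k (fun x => (h : G)⁻¹ * x)
  have hPapply : ∀ (f : G → k) (x : G),
      P f x = (Nat.card H : k)⁻¹ * ∑ h : H, lam h * f ((h : G)⁻¹ * x) := by
    intro f x
    simp [P, LinearMap.sum_apply, Finset.sum_apply, LinearMap.funLeft_apply]
  have hR : ∀ g f x, R g f x = f (x * g) := fun g f x => rfl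
  have hcomm : ∀ g f, P (R g f) = R g (P f) := by
    intro g f
    funext x
    simp only [hPapply, hR, mul_assoc]
  have hfix : ∀ (h : H) f x, lam h * P f ((h : G)⁻¹ * x) = P f x := by
    intro h f x
    simp only [hPapply]
    rw [mul_left_comm]
    congr 1
    rw [Finset.mul_sum]
    apply Fintype.sum_equiv (Equiv.mulLeft h)
    intro j
    simp [mul_assoc]
  have hidem : ∀ f, P (P f) = P f := by
    intro f
    funext x
    rw [hPapply]
    simp only [hfix, Finset.sum_const, Finset.card_univ, nsmul_eq_mul, ← Nat.card_eq_fintype_card]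
    rw [inv_mul_cancel_left₀ (Nat.cast_ne_zero.2 Nat.card_pos.ne')]
  let reg : Representation k G (G → k) :=
    { toFun := R
      map_one' := by
        apply LinearMap.ext; intro f; funext x
        simp [R, LinearMap.funLeft_apply]
      map_mul' := fun a b => by
        apply LinearMap.ext; intro f; funext x
        simp [R, LinearMap.funLeft_apply, mul_assoc] }
  let W : Subrepresentation reg :=
    { toSubmodule := LinearMap.range P
      apply_mem_toSubmodule := fun g v hv => by
        obtain ⟨f, rfl⟩ := hv
        exact ⟨R g f, hcomm g f⟩ }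
  refine ⟨_, Cfsg.Agent.Char.coordRep W.toRepresentation, fun g => ?_⟩
  rw [← Representation.char_iso (Cfsg.Agent.Char.coordEquiv W.toRepresentation)]
  let q : (G → k) →ₗ[k] W.toSubmodule := LinearMap.rangeRestrict P
  let j : W.toSubmodule →ₗ[k] (G → k) := R g ∘ₗ W.toSubmodule.subtype
  have h1 : q ∘ₗ j = W.toRepresentation g := by
    apply LinearMap.ext
    rintro ⟨w, f, rfl⟩
    apply Subtype.ext
    show P (R g (P f)) = R g (P f)
    rw [hcomm, hidem]
  have h2 : j ∘ₗ q = R g ∘ₗ P := rfl
  rw [Representation.character, ← h1, LinearMap.trace_comp_comm', h2,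
    LinearMap.trace_eq_matrix_trace k (Pi.basisFun k G), Matrix.trace]
  simp only [Matrix.diag, LinearMap.toMatrix_apply, Pi.basisFun_repr, Pi.basisFun_apply,
    LinearMap.comp_apply, hR, hPapply, ← Finset.mul_sum]
  congr 1
  apply Fintype.sum_equiv (Equiv.inv G)
  intro x
  simp only [Equiv.inv_apply, inv_inv, Pi.single_apply, mul_ite, mul_one, mul_zero]
  have e : ∀ h : H, ((h : G)⁻¹ * (x * g) = x) ↔ (h : G) = x * g * x⁻¹ := by
    intro h
    rw [inv_mul_eq_iff_eq_mul, eq_mul_inv_iff_mul_eq, eq_comm]
  simp only [e]
  by_cases hm : ∃ h : H, (h : G) = x * g * x⁻¹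
  · obtain ⟨h, hh⟩ := hm
    rw [← hh, Subtype.val_injective.extend_apply, Finset.sum_eq_single h]
    · rw [if_pos rfl]
    · intro h' _ hne
      rw [if_neg fun e' => hne (Subtype.ext e')]
    · intro hn
      exact absurd (Finset.mem_univ _) hn
  · rw [Function.extend_apply' _ _ _ hm, Pi.zero_apply]
    exact Finset.sum_eq_zero fun h _ => if_neg fun e' => hm ⟨h, e'⟩

end field

/-- Extension of scalars of a matrix representation. -/
def baseChange {G : Type u} [Group G] {k : Type} [Field k] (φ : k →+* ℂ) {V : Type}
    [AddCommGroup V] [Module k V] {n : ℕ} (b : Module.Basis (Fin n) k V)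
    (τ : Representation k G V) : Representation ℂ G (Fin n → ℂ) where
  toFun g := Matrix.toLin' ((LinearMap.toMatrix b b (τ g)).map φ)
  map_one' := by
    rw [map_one τ, LinearMap.toMatrix_one, Matrix.map_one φ (map_zero φ) (map_one φ),
      Matrix.toLin'_one]
    rfl
  map_mul' x y := by
    rw [map_mul τ, LinearMap.toMatrix_mul, Matrix.map_mul, Matrix.toLin'_mul]
    rfl

theorem baseChange_apply {G : Type u} [Group G] {k : Type} [Field k] (φ : k →+* ℂ) {V : Type}
    [AddCommGroup V] [Module k V] {n : ℕ} (b : Module.Basis (Fin n) k V)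
    (τ : Representation k G V) (g : G) :
    LinearMap.toMatrix' (baseChange φ b τ g) = (LinearMap.toMatrix b b (τ g)).map φ :=
  LinearMap.toMatrix'_toLin' _

theorem baseChange_character {G : Type u} [Group G] {k : Type} [Field k] (φ : k →+* ℂ) {V : Type}
    [AddCommGroup V] [Module k V] {n : ℕ} (b : Module.Basis (Fin n) k V)
    (τ : Representation k G V) (g : G) :
    (baseChange φ b τ).character g = φ (τ.character g) := by
  rw [Representation.character, Representation.character, LinearMap.trace_eq_matrix_trace k b,
    LinearMap.trace_eq_matrix_trace ℂ (Pi.basisFun ℂ (Fin n)), LinearMap.toMatrix_eq_toMatrix',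
    baseChange_apply]
  simp [Matrix.trace, map_sum]

/-- Every representation is realised over a field containing the values of all linear characters
of subgroups. -/
theorem exists_realisation {G : Type u} [Group G] [Finite G] {k : Type} [Field k] [Algebra k ℂ]
    (hroots : ∀ z : ℂ, z ^ Monoid.exponent G = 1 → z ∈ Set.range (algebraMap k ℂ))
    {n : ℕ} (ρ : Representation ℂ G (Fin n → ℂ)) :
    ∃ σ : Representation ℂ G (Fin n → ℂ), Nonempty (ρ.Equiv σ) ∧
      ∀ g i j, LinearMap.toMatrix' (σ g) i j ∈ Set.range (algebraMap k ℂ) := by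
  classical
  letI := Fintype.ofFinite G
  haveI : CharZero k := (algebraMap k ℂ).charZero_iff (algebraMap k ℂ).injective |>.2 inferInstance
  let φ := algebraMap k ℂ
  let A : Set (G → ℂ) := {f | ∃ (m : ℕ) (τ : Representation k G (Fin m → k)),
    τ.IsIrreducible ∧ (fun g => φ (τ.character g)) = f}
  let S : AddSubgroup (G → ℂ) := AddSubgroup.closure A
  have hrep : ∀ {m : ℕ} (τ : Representation k G (Fin m → k)),
      (fun g => φ (τ.character g)) ∈ S := by
    intro m τ
    have h := character_mem_closure_irr _ _ τ rfl
    generalize τ.character = f₀ at h ⊢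
    induction h using AddSubmonoid.closure_induction with
    | mem f hf =>
      obtain ⟨m', τ', hτ', rfl⟩ := hf
      exact AddSubgroup.subset_closure ⟨m', τ', hτ', rfl⟩
    | zero =>
      convert S.zero_mem using 1
      funext g
      simp
    | add a b _ _ ha hb =>
      have : (fun g => φ ((a + b) g)) = (fun g => φ (a g)) + fun g => φ (b g) := by
        funext g; simp
      rw [this]
      exact S.add_mem ha hb
  have hall : ∀ χ : G → ℂ, Cfsg.IsCharacter G χ → χ ∈ S := by
    intro χ hχ
    have h := mem_elemLinear hχ
    clear hχ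
    induction h using AddSubgroup.closure_induction with
    | mem f hf =>
      obtain ⟨p, E, lam, -, -, rfl⟩ := hf
      letI := Fintype.ofFinite E
      have hmem : ∀ e : E, (lam e : ℂ) ∈ Set.range φ := fun e => hroots _ (by
        rw [← Units.val_pow_eq_pow_val, ← map_pow,
          show e ^ Monoid.exponent G = 1 from Subtype.ext (Monoid.pow_exponent_eq_one (e : G)),
          map_one, Units.val_one])
      choose l hl using hmem
      let lam' : E →* k :=
        { toFun := l
          map_one' := φ.injective (by rw [hl, map_one, map_one, Units.val_one])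
          map_mul' := fun a b => φ.injective (by rw [map_mul, hl, hl, hl, map_mul, Units.val_mul]) }
      obtain ⟨m, τ, hτ⟩ := exists_rep_induced E lam'
      have : Cfsg.indFun E (fun e => (lam e : ℂ)) = fun g => φ (τ.character g) := by
        funext g
        rw [hτ, map_mul, map_inv₀, map_natCast, map_sum, indFun_apply]
        congr 1
        refine Finset.sum_congr rfl fun x _ => ?_
        by_cases hx : x⁻¹ * g * x ∈ E
        · rw [extendByZero_mem E _ hx]
          have e2 := Subtype.val_injective.extend_apply (lam' : E → k) (0 : G → k)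
            (⟨x⁻¹ * g * x, hx⟩ : E)
          exact ((congrArg φ e2).trans (hl _)).symm
        · rw [extendByZero_notMem E _ hx, Function.extend_apply', Pi.zero_apply, map_zero]
          rintro ⟨e, he⟩
          exact hx (he ▸ e.2)
      rw [this]
      exact hrep τ
    | zero => exact S.zero_mem
    | add a b _ _ ha hb => exact S.add_mem ha hb
    | neg a _ ha => exact S.neg_mem ha
  -- irreducible characters are realised
  have hinner : ∀ f ∈ A, ∀ f' ∈ A, ∃ d : ℕ,
      Cfsg.classInner f f' = d ∧ (f = f' ↔ d ≠ 0) := by
    rintro f ⟨m, τ, hτ, rfl⟩ f' ⟨m', τ', hτ', rfl⟩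
    obtain ⟨d, hd, hd'⟩ := inner_field τ τ'
    refine ⟨d, ?_, ?_⟩
    · have hχ : Cfsg.IsCharacter G (fun g => φ (τ'.character g)) :=
        ⟨m', baseChange φ (Pi.basisFun k (Fin m')) τ',
          funext fun g => baseChange_character φ _ τ' g⟩
      have := congrArg φ hd
      rw [map_mul, map_inv₀, map_natCast, map_sum, map_natCast] at this
      rw [← this, Cfsg.classInner]
      congr 1
      refine Finset.sum_congr rfl fun g _ => ?_
      rw [map_mul, ← Cfsg.Agent.Char.isCharacter_inv hχ g]
    · rw [← hd']
      exact ⟨fun h => funext fun g => φ.injective (congrFun h g), fun h => by rw [h]⟩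
  have hirr : ∀ χ : G → ℂ, Cfsg.IsIrrCharacter G χ → ∃ f ∈ A, f = χ := by
    intro χ hχ
    have h := hall χ (Cfsg.Agent.Char.isCharacter_of_irr hχ)
    obtain ⟨c, hc, hcA⟩ : ∃ c : (G → ℂ) →₀ ℤ,
        χ = c.sum (fun f z => (z : ℂ) • f) ∧ ∀ f ∈ c.support, f ∈ A := by
      clear hχ
      induction h using AddSubgroup.closure_induction with
      | mem f hf =>
        exact ⟨Finsupp.single f 1, by simp [Finsupp.sum_single_index], fun f' hf' => by
          rw [Finset.mem_singleton.1 (Finsupp.support_single_subset hf')]; exact hf⟩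
      | zero => exact ⟨0, by simp, by simp⟩
      | add a b _ _ ha hb =>
        obtain ⟨c, rfl, hc⟩ := ha
        obtain ⟨c', rfl, hc'⟩ := hb
        refine ⟨c + c', ?_, fun f hf => ?_⟩
        · rw [Finsupp.sum_add_index' (by simp) (fun a b b' => by simp [add_smul])]
        · exact (Finset.mem_union.1 (Finsupp.support_add hf)).elim (hc f) (hc' f)
      | neg a _ ha =>
        obtain ⟨c, rfl, hc⟩ := ha
        refine ⟨-c, ?_, fun f hf => hc f (by rwa [Finsupp.support_neg] at hf)⟩
        rw [Finsupp.sum_neg_index (by simp)]
        simp [Finsupp.sum]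
    choose d hd hd' using hinner
    let D : (G → ℂ) → ℕ := fun f => if h : f ∈ A then d f h f h else 0
    have hnorm : ∑ f ∈ c.support, c f * c f * (D f : ℤ) = 1 := by
      have h1 := Cfsg.Agent.Char.classInner_irr_self hχ
      nth_rw 1 [hc] at h1
      rw [Finsupp.sum, Cfsg.Agent.Char.classInner_sum_left] at h1
      have h2 : ∀ f ∈ c.support, Cfsg.classInner ((c f : ℂ) • f) χ =
          ((c f * c f * (D f : ℤ) : ℤ) : ℂ) := by
        intro f hf
        rw [Cfsg.Agent.Char.classInner_smul_left, hc, Finsupp.sum,
          Cfsg.Agent.Char.classInner_sum_right, Finset.sum_eq_single_of_mem f hf]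
        · rw [Cfsg.Agent.Char.classInner_smul_right, hd f (hcA f hf) f (hcA f hf),
            show D f = d f (hcA f hf) f (hcA f hf) from dif_pos (hcA f hf)]
          push_cast
          simp
          ring
        · intro f' hf' hne
          rw [Cfsg.Agent.Char.classInner_smul_right, hd f (hcA f hf) f' (hcA f' hf'),
            show d f (hcA f hf) f' (hcA f' hf') = 0 from
              not_not.1 (mt (hd' f (hcA f hf) f' (hcA f' hf')).2 hne.symm), Nat.cast_zero,
            mul_zero]
      rw [Finset.sum_congr rfl h2] at h1
      exact_mod_cast h1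
    have hpos : ∀ f ∈ c.support, 1 ≤ c f * c f * (D f : ℤ) := by
      intro f hf
      have h1 : c f ≠ 0 := Finsupp.mem_support_iff.1 hf
      have h2 : D f ≠ 0 := by
        rw [show D f = d f (hcA f hf) f (hcA f hf) from dif_pos (hcA f hf)]
        exact (hd' f (hcA f hf) f (hcA f hf)).1 rfl
      have h3 : 1 ≤ c f * c f := mul_self_pos.2 h1
      have h4 : (1 : ℤ) ≤ (D f : ℤ) := by exact_mod_cast Nat.pos_of_ne_zero h2
      nlinarith
    have hcard : (c.support.card : ℤ) ≤ 1 := by
      rw [← hnorm, Finset.card_eq_sum_ones, Nat.cast_sum, Nat.cast_one]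
      exact Finset.sum_le_sum hpos
    obtain ⟨f, hf⟩ : c.support.Nonempty := by
      rw [Finset.nonempty_iff_ne_empty]
      intro he
      rw [he, Finset.sum_empty] at hnorm
      exact zero_ne_one hnorm
    have hone : c.support = {f} := Finset.eq_singleton_iff_unique_mem.2
      ⟨hf, fun f' hf' => Finset.card_le_one.1 (by omega) f' hf' f hf⟩
    rw [hone, Finset.sum_singleton] at hnorm
    have hu : c f = 1 ∨ c f = -1 :=
      Int.isUnit_iff.1 (IsUnit.of_mul_eq_one (c f * (D f : ℤ)) (by rw [← mul_assoc]; exact hnorm))
    rw [Finsupp.sum, hone, Finset.sum_singleton] at hc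
    refine ⟨f, hcA f hf, ?_⟩
    obtain ⟨m, τ, hτ, rfl⟩ := hcA f hf
    rcases hu with h | h <;> rw [h] at hc
    · simpa using hc.symm
    · exfalso
      obtain ⟨r, hr, hr1⟩ := Cfsg.Agent.Char.irr_one_pos hχ
      have h1 := congrFun hc 1
      simp only [Int.cast_neg, Int.cast_one, Pi.smul_apply, neg_smul, one_smul, hr1,
        Representation.char_one, map_natCast] at h1
      have : (r : ℤ) = -(Module.finrank k (Fin m → k) : ℤ) := by exact_mod_cast h1
      omega
  -- assemble
  obtain ⟨s, hs⟩ := Cfsg.Agent.Char.isCharacter_eq_multiset_sum ⟨n, ρ, rfl⟩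
  obtain ⟨V, hV1, hV2, hV3, τ, hτ⟩ : ∃ (V : Type) (_ : AddCommGroup V) (_ : Module k V)
      (_ : FiniteDimensional k V) (τ : Representation k G V),
      (fun g => φ (τ.character g)) = (s.map Subtype.val).sum := by
    clear hs
    induction s using Multiset.induction_on with
    | empty =>
      refine ⟨Fin 0 → k, inferInstance, inferInstance, inferInstance, 1, ?_⟩
      funext g
      simp [Representation.character]
    | cons χ s ih =>
      obtain ⟨V, _, _, _, τ, hτ⟩ := ih
      obtain ⟨f, ⟨m, τ', -, hτ'⟩, rfl⟩ := hirr χ.1 χ.2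
      refine ⟨(Fin m → k) × V, inferInstance, inferInstance, inferInstance, τ'.prod τ, ?_⟩
      rw [Multiset.map_cons, Multiset.sum_cons, ← hτ, Cfsg.Agent.Char.character_prod, ← hτ']
      funext g
      simp [φ]
  have hdim : Module.finrank k V = n := by
    have h := congrFun hτ 1
    rw [← hs, Representation.char_one, Representation.char_one, map_natCast,
      Module.finrank_fin_fun] at h
    exact_mod_cast h
  let b := Module.finBasisOfFinrankEq k V hdim
  refine ⟨baseChange φ b τ, ?_, fun g i j => ?_⟩
  · refine Cfsg.Agent.Char.equiv_of_character_eq ρ _ ?_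
    rw [hs, ← hτ]
    funext g
    exact (baseChange_character φ b τ g).symm
  · exact ⟨LinearMap.toMatrix b b (τ g) i j, by rw [baseChange_apply]; rfl⟩

end Cfsg.Agent.CharInd
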